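import Cfsg.Agent.H73.BdDefs
import Cfsg.Agent.H47.K0R

/-! Project BD, piece CH. -/

set_option autoImplicit false

namespace Cfsg.Agent.H96.BdCh

open Cfsg Cfsg.Agent.H73.Bd

universe u

theorem ch (r : H76.K0.RStmt.{u}) (ineq : H76.K0.IneqStmt.{u}) : ChStmt.{u} := by
  intro G _ _ p hp M hM P
  classical
  haveI : Finite (IrrCharacter G) := H13.finite_irrCharacter
  haveI : Fintype G := Fintype.ofFinite _
  refine ⟨inferInstance, ⟨H21.triv G, H21.triv_mem_principal hM.2.1⟩, H21.charDegree_one, ?_⟩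
  intro _ v n hn
  choose m hm using hn
  set θ : G → ℂ := ∑ i : principalBlock M G, n i • (i.1 : G → ℂ) with hθ
  have gen : IsGeneralizedCharacter G θ := by
    refine ⟨∑ i : principalBlock M G, ((n i).toNat : ℂ) • (i.1 : G → ℂ),
      ∑ i : principalBlock M G, ((-n i).toNat : ℂ) • (i.1 : G → ℂ),
      H11.isCharacter_sum _ _ (fun χ _ =>
        H11.isCharacter_natCast_smul (H11.isCharacter_of_irr χ.1.2) _),
      H11.isCharacter_sum _ _ (fun χ _ =>
        H11.isCharacter_natCast_smul (H11.isCharacter_of_irr χ.1.2) _), ?_⟩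
    rw [← Finset.sum_sub_distrib, hθ]
    refine Finset.sum_congr rfl fun χ _ => ?_
    rw [← sub_smul, ← Int.cast_smul_eq_zsmul ℂ]
    congr 1
    exact_mod_cast (Int.toNat_sub_toNat_neg (n χ)).symm
  have q0 : (Nat.card P : ℂ) ≠ 0 := Nat.cast_ne_zero.2 Nat.card_pos.ne'
  have int : ∀ g, IsIntegral ℤ (θ g / (Nat.card P : ℕ)) := fun g => by
    obtain ⟨α, hα, e⟩ := r G p M hM P g
    rw [← finsum_set_coe_eq_finsum_mem, finsum_eq_sum_of_fintype] at e
    have e2 : θ g / (Nat.card P : ℕ) =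
        v * α + ∑ i : principalBlock M G, (m i : ℂ) * (i.1 : G → ℂ) g := by
      rw [div_eq_iff q0, add_mul, mul_assoc, mul_comm α, ← e, Finset.mul_sum, Finset.sum_mul,
        ← Finset.sum_add_distrib, hθ, Finset.sum_apply]
      refine Finset.sum_congr rfl fun i _ => ?_
      have : (n i : ℂ) = v * (charDegree (i.1 : G → ℂ) : ℂ) + (Nat.card P : ℂ) * m i := by
        exact_mod_cast sub_eq_iff_eq_add'.1 (hm i)
      rw [Pi.smul_apply, zsmul_eq_mul, this]; ring
    rw [e2]
    refine IsIntegral.add (IsIntegral.mul ?_ hα) (IsIntegral.sum _ fun χ _ => IsIntegral.mul ?_ ?_)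
    · exact isIntegral_algebraMap (R := ℤ) (A := ℂ) (x := v)
    · exact isIntegral_algebraMap (R := ℤ) (A := ℂ) (x := m χ)
    · obtain ⟨k, ρ, -, e⟩ := χ.1.2
      rw [← e]
      exact H12.isIntegral_character ρ g
  have h := (ineq G θ gen (Nat.card P) Nat.card_pos int).1
  have i1 : ∀ j : principalBlock M G, classInner θ (j.1 : G → ℂ) = n j := fun j => by
    rw [hθ, H11.classInner_sum_left, Finset.sum_eq_single j]
    · rw [H11.classInner_zsmul_left, H11.classInner_irr_self j.1.2, mul_one]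
    · intro i _ hi
      rw [H11.classInner_zsmul_left, H11.classInner_irr_of_ne i.1.2 j.1.2
        (fun e => hi (Subtype.ext (Subtype.ext e))), mul_zero]
    · simp
  have i2 : classInner θ θ = ((∑ i, n i ^ 2 : ℤ) : ℂ) := by
    conv_lhs => arg 2; rw [hθ]
    rw [H11.classInner_sum_right]
    push_cast
    exact Finset.sum_congr rfl fun i _ => by rw [H11.classInner_zsmul_right, i1, sq]
  have g0 : (0 : ℝ) < Nat.card G := Nat.cast_pos.2 Nat.card_pos
  have a1 : ∑ g, ‖θ g‖ ^ 2 = (Nat.card G : ℝ) * ((∑ i, n i ^ 2 : ℤ) : ℝ) := by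
    have := H11.classInner_self_re θ
    rw [i2, Complex.intCast_re] at this
    rw [this, mul_inv_cancel_left₀ g0.ne']
  have a2 : ∑ g, (θ g).re =
      (Nat.card G : ℝ) * (n ⟨H21.triv G, H21.triv_mem_principal hM.2.1⟩ : ℝ) := by
    have := H11.card_mul_classInner θ (H21.triv G).1
    rw [i1 ⟨H21.triv G, H21.triv_mem_principal hM.2.1⟩] at this
    simp only [H21.triv_apply, map_one, mul_one] at this
    rw [← Complex.re_sum, ← this]
    simp
  rw [a1, a2, mul_left_comm] at h
  exact_mod_cast le_of_mul_le_mul_left h g0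

end Cfsg.Agent.H96.BdCh
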