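import Cfsg.Agent.H97.JmDefs
import Cfsg.Agent.H33.J4Odd1

/-!
# Overgroups of the normalizer of a subgroup of order thirty-seven with a small local subgroup
-/

set_option autoImplicit false

namespace Cfsg.Agent.H97.JM

open Subgroup

universe u

namespace PN

open Cfsg.Agent.H33.J4O

variable {G : Type u} [Group G] [Finite G]

/-- Powers by the index lie in a normal subgroup. -/
theorem pow_index {K H : Subgroup G} (hKH : K ≤ H) (hn : H ≤ normalizer (K : Set G)) {m : ℕ}
    (hc : Nat.card H = m * Nat.card K) {x : G} (hx : x ∈ H) : x ^ m ∈ K := by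
  haveI : (K.subgroupOf H).Normal := (normal_subgroupOf_iff_le_normalizer hKH).2 hn
  have h1 : (K.subgroupOf H).index * Nat.card (K.subgroupOf H) = Nat.card H :=
    index_mul_card _
  have h2 : Nat.card (K.subgroupOf H) = Nat.card K :=
    Nat.card_congr (subgroupOfEquivOfLe hKH).toEquiv
  have h3 : (K.subgroupOf H).index = m := by
    rw [h2, hc] at h1
    exact Nat.eq_of_mul_eq_mul_right Nat.card_pos h1
  have h4 := pow_index_mem (H := K.subgroupOf H) (⟨x, hx⟩ : H)
  rw [h3, mem_subgroupOf] at h4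
  simpa using h4

theorem hfac (q k : ℕ) {n : ℕ} (hn : n ≠ 0) (hq : q.Prime) (h1 : q ^ k ∣ n)
    (h2 : ¬ q ^ (k + 1) ∣ n) : n.factorization q = k :=
  le_antisymm (by
    by_contra h
    exact h2 ((hq.pow_dvd_iff_le_factorization hn).2 (by omega)))
    ((hq.pow_dvd_iff_le_factorization hn).1 h1)

/-- The numerical test. -/
def test (n : ℕ) : Bool :=
  n % 444 != 0 || n % 9 == 0 || n % 5 == 0 || n % 23 == 0 || n % 29 == 0 || n / 444 % 37 != 1 ||
    (n % 11 == 0 && (n % 121 != 0 || n % 1331 == 0)) || !ok n ||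
    n == 444 || n == 49728 || n == 220053504 || n == 24645992448

theorem test_all : allD test = true := by decide +kernel

theorem fin_num {n r : ℕ} (hdiv : test n = true) (hok : ok n = true) (hc : n = 3 * r)
    (hd3 : 37 * 12 ∣ n) (hd4 : n / (37 * 12) % 37 = 1) (h3 : ¬ 3 ∣ r) (h5 : ¬ 5 ∣ r)
    (h23 : ¬ 23 ∣ r) (h29 : ¬ 29 ∣ r) (h11 : ¬ 11 ∣ r ∨ (121 ∣ r ∧ ¬ 1331 ∣ r)) (h7 : ¬ 7 ∣ r)
    (h121 : r ≠ 73351168) : n = 444 := by
  simp only [test, hok, Bool.or_eq_true, bne_iff_ne, ne_eq, beq_iff_eq, Bool.and_eq_true,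
    Bool.not_true, Bool.false_eq_true, or_false] at hdiv
  have e1 := Nat.mod_eq_zero_of_dvd hd3
  clear hd3 hok
  rcases hdiv with ((((((((((h | h) | h) | h) | h) | h) | h) | h) | h) | h) | h)
  · exact absurd e1 h
  · exact absurd (by clear * - h hc; omega) h3
  · exact absurd (by clear * - h hc; omega) h5
  · exact absurd (by clear * - h hc; omega) h23
  · exact absurd (by clear * - h hc; omega) h29
  · exact absurd hd4 h
  · exfalso
    obtain ⟨ha, hb⟩ := h
    rcases h11 with h | ⟨h, h'⟩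
    · exact h (by clear * - ha hc; omega)
    · rcases hb with hb | hb
      · exact hb (by clear * - h hc; omega)
      · exact h' (by clear * - hb hc; omega)
  · exact h
  · exact absurd (by clear * - h hc; omega) h7
  · exact absurd (by clear * - h hc; omega) h121
  · exact absurd (by clear * - h hc; omega) h7

theorem no7 (hNC : NC.{u}) (hFR : FR.{u}) (c : Ctx G) {g : G} (hg : orderOf g = 37)
    {R : Subgroup G} (hgR : g ∈ R) (h3 : ¬ 3 ∣ Nat.card R) (h7 : 7 ∣ Nat.card R) : False := by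
  obtain ⟨s, hsR, hs⟩ := exists_ord (by norm_num : Nat.Prime 7) h7
  obtain ⟨d, -, hd, hd'⟩ := card_norm (by norm_num : Nat.Prime 7) hs
  rw [c.n7 s hs, c.c7 s hs] at hd
  obtain rfl : d = 3 := by omega
  have hle : R ⊓ normalizer ((zpowers s : Subgroup G) : Set G) ≤ centralizer ({s} : Set G) := by
    intro r hr
    have hco : Nat.Coprime 3 (Nat.card R) := (Nat.Prime.coprime_iff_not_dvd (by norm_num)).2 h3
    refine mem_of_pow hco (mcs.2 (hd' r hr.2)) ?_
    rw [pow_card hr.1]
    exact one_mem _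
  have h49 : ¬ 7 ^ 2 ∣ Nat.card ↥(R ⊓ centralizer ({s} : Set G)) := by
    intro h
    have := h.trans (card_subgroup_dvd_card _)
    rw [c.card] at this
    norm_num at this
  obtain ⟨K, hKR, hRn, hc, -⟩ := hNC G R 7 s (by norm_num) hsR hs hle h49
  have hgK : g ∈ K := by
    refine mem_of_pow (by norm_num : Nat.Coprime 7 37) (pow_index hKR hRn hc hgR) ?_
    rw [← hg, pow_orderOf_eq_one]
    exact one_mem _
  haveI : Fact (Nat.Prime 37) := ⟨by norm_num⟩
  obtain ⟨P, hP⟩ := exists_sylow (p := 37) (A := zpowers g) (k := 1)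
    (by rw [Nat.card_zpowers, hg]; norm_num) (by rw [c.card]; norm_num)
  have h1 := hFR G 37 P K R (by rw [hP]; exact (zpowers_le).2 hgK) hKR hRn
  rw [hP, (c.big 37 12 (by simp) g hg).2, hc, mul_comm 7] at h1
  have h2 := Nat.dvd_of_mul_dvd_mul_left Nat.card_pos h1
  norm_num at h2

theorem no121 (c : Ctx G) {R : Subgroup G} (hR : Nat.card R = 73351168) : False := by
  haveI : Fact (Nat.Prime 11) := ⟨by norm_num⟩
  obtain ⟨E⟩ : Nonempty (Sylow 11 R) := inferInstance
  have hE : Nat.card (E : Subgroup R) = 121 := by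
    rw [E.card_eq_multiplicity, hR]
    rw [hfac 11 2 (by norm_num) (by norm_num) (by norm_num) (by norm_num)]
    norm_num
  obtain ⟨U, hU⟩ := (E.isPGroup'.map R.subtype).exists_le_sylow
  set N : Subgroup R := normalizer ((E : Subgroup R) : Set R) with hN
  have hne : (E : Subgroup R).map R.subtype ≠ ⊥ := by
    intro h
    have h1 : Nat.card ((E : Subgroup R).map R.subtype) = 121 := by
      rw [card_map_of_injective R.subtype_injective, hE]
    rw [h] at h1
    simp at h1
  have hle : N.map R.subtype ≤ normalizer ((U : Subgroup G) : Set G) := by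
    rintro _ ⟨x, hx, rfl⟩
    have h1 : U = (R.subtype x) • U := by
      apply c.ti
      intro hb
      apply hne
      rw [eq_bot_iff, ← hb]
      refine le_inf hU ?_
      rintro _ ⟨e, he, rfl⟩
      have h2 : x⁻¹ * e * x⁻¹⁻¹ ∈ (E : Subgroup R) := norm_mem (inv_mem hx) he
      have h3 : R.subtype (x⁻¹ * e * x⁻¹⁻¹) ∈ (U : Subgroup G) := hU ⟨_, h2, rfl⟩
      rw [Sylow.coe_subgroup_smul, mem_pointwise_smul_iff_inv_smul_mem]
      simpa [MulAut.smul_def] using h3
    exact Sylow.smul_eq_iff_mem_normalizer.1 h1.symm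
  have h1 : Nat.card N ∣ 319440 := by
    rw [← (c.n11 U).2, ← card_map_of_injective (K := N) R.subtype_injective]
    exact card_dvd_of_le hle
  have h2 : N.index * Nat.card N = 73351168 := by rw [← hR]; exact index_mul_card _
  have h3 : 121 ∣ Nat.card N := by rw [← hE]; exact card_dvd_of_le le_normalizer
  have h4 : N.index % 11 = 1 := by
    have h := E.card_eq_index_normalizer
    have h' : Nat.card (Sylow 11 R) % 11 = 1 % 11 := card_sylow_modEq_one 11 R
    rw [h] at h'
    exact h'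
  have h5 : Nat.card N ∣ 1936 := by
    have := Nat.dvd_gcd h1 (Dvd.intro_left _ h2)
    norm_num at this
    exact this
  obtain ⟨d, hd⟩ := h3
  rw [hd] at h5 h2
  have h6 : d ∣ 16 := Nat.dvd_of_mul_dvd_mul_left (by norm_num : 0 < 121) h5
  have h7 : d ≤ 16 := Nat.le_of_dvd (by norm_num) h6
  interval_cases d <;> omega

end PN

open PN Cfsg.Agent.H33.J4O in
theorem pPN (hALLD : ALLD) (hOK : OK.{u}) (hSYL : SYL.{u}) (hNC : NC.{u}) (hFIX : FIX.{u})
    (hINV : INV.{u}) (hFR : FR.{u}) (hCONG : CONG.{u}) : PN.{u} := by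
  intro G _ _ c g w H hg hw hwg hgH hwH hN
  have hdiv : Nat.card H ∣ 86775571046077562880 := by
    rw [← c.card]; exact card_subgroup_dvd_card _
  -- the prime 37
  obtain ⟨d, hd1, hd2, hd3, hd4⟩ := hCONG G H 37 12 g (by norm_num) hgH hg
    (fun h => by have := h.trans hdiv; norm_num at this) (c.big 37 12 (by simp) g hg).2
  have h12 : 12 ∣ 37 * d := by
    rw [← hd1, ← hw]
    exact ord_dvd (A := H ⊓ normalizer ((zpowers g : Subgroup G) : Set G)) ⟨hwH, mem_norm_zp hwg⟩
  obtain rfl : d = 12 :=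
    Nat.dvd_antisymm hd2 ((by norm_num : Nat.Coprime 12 37).dvd_of_dvd_mul_left h12)
  -- the normal complement at 3
  have hy : orderOf (w ^ 4) = 3 := by rw [orderOf_pow' _ (by norm_num), hw]; norm_num
  have hC : H ⊓ centralizer ({w ^ 4} : Set G) ≤ zpowers w :=
    (inf_le_inf_left _ (cent_le_norm _)).trans hN
  have hC12 : ∀ S : Subgroup G, S ≤ H → Nat.card ↥(S ⊓ centralizer ({w ^ 4} : Set G)) ∣ 12 := by
    intro S hS
    rw [← hw, ← Nat.card_zpowers]
    exact card_dvd_of_le ((inf_le_inf_right _ hS).trans hC)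
  obtain ⟨R, hRH, hHn, hc, h3⟩ := hNC G H 3 (w ^ 4) (by norm_num) (pow_mem hwH 4) hy
    (hN.trans (by
      rw [zpowers_le]
      exact mcs.2 (by group)))
    (fun h => by have := h.trans (hC12 H le_rfl); norm_num at this)
  have hq : ∀ q : ℕ, q.Prime → Nat.Coprime q 12 → q ^ (Nat.card R).factorization q % 3 = 1 := by
    intro q hq hco
    obtain ⟨S, hSR, hS, hyS⟩ := hINV G R 3 q (w ^ 4) (by norm_num) hq hy (hHn (pow_mem hwH 4)) h3
    have h1 := hFIX G S 3 (w ^ 4) (by norm_num) hy hyS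
    have h2 : Nat.card ↥(S ⊓ centralizer ({w ^ 4} : Set G)) = 1 := by
      have h4 : Nat.card ↥(S ⊓ centralizer ({w ^ 4} : Set G)) ∣ q ^ (Nat.card R).factorization q := by
        rw [← hS]; exact card_dvd_of_le inf_le_left
      exact Nat.eq_one_of_dvd_coprimes (Nat.Coprime.pow_left _ hco) h4 (hC12 S (hSR.trans hRH))
    rw [← hS, h1, h2]
  have hRpos : Nat.card R ≠ 0 := Nat.card_pos.ne'
  have hRdiv : Nat.card R ∣ 86775571046077562880 := (card_dvd_of_le hRH).trans hdiv
  have hfac : ∀ q k : ℕ, q.Prime → q ^ k ∣ Nat.card R → ¬ q ^ (k + 1) ∣ Nat.card R →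
      (Nat.card R).factorization q = k := fun q k hq h1 h2 => hfac q k hRpos hq h1 h2
  have hno : ∀ q : ℕ, q.Prime → Nat.Coprime q 12 → q % 3 ≠ 1 → ¬ q ^ 2 ∣ 86775571046077562880 →
      ¬ q ∣ Nat.card R := by
    intro q hq' hco h1 h2 h4
    have := hq q hq' hco
    rw [hfac q 1 hq' (by simpa using h4) (fun h => h2 (h.trans hRdiv)), pow_one] at this
    exact h1 this
  have h5 := hno 5 (by norm_num) (by norm_num) (by norm_num) (by norm_num)
  have h23 := hno 23 (by norm_num) (by norm_num) (by norm_num) (by norm_num)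
  have h29 := hno 29 (by norm_num) (by norm_num) (by norm_num) (by norm_num)
  have h11 : ¬ 11 ∣ Nat.card R ∨ (121 ∣ Nat.card R ∧ ¬ 1331 ∣ Nat.card R) := by
    have h1 := hq 11 (by norm_num) (by norm_num)
    by_contra h
    push Not at h
    obtain ⟨ha, hb⟩ := h
    by_cases h2 : 121 ∣ Nat.card R
    · rw [hfac 11 3 (by norm_num) (by simpa using hb h2)
        (fun h => by have := h.trans hRdiv; norm_num at this)] at h1
      norm_num at h1
    · rw [hfac 11 1 (by norm_num) (by simpa using ha) (by simpa using h2)] at h1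
      norm_num at h1
  have hgR : g ∈ R := by
    refine mem_of_pow (by norm_num : Nat.Coprime 3 37) (pow_index hRH hHn hc hgH) ?_
    rw [← hg, pow_orderOf_eq_one]
    exact one_mem _
  exact fin_num (hALLD test test_all _ hdiv) (hOK G c H) hc hd3 hd4 h3 h5 h23 h29 h11
    (no7 hNC hFR c hg hgR h3) (no121 c)

end Cfsg.Agent.H97.JM
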