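import Cfsg.Agent.H45.OnDefs

/-! The blocks through two points form a linear space. -/

set_option autoImplicit false

namespace Cfsg.Agent.H96.OnLs

open Cfsg.Agent.H45.On

universe u v

theorem ls : LsStmt.{u, v} := by
  intro G Ω _ _ _ _ S L K z w x x' hzw hx hv hv'
  let J : Ω → Ω → Set (Subgroup G) := fun a b => {U | L.Ln U ∧ L.On U a ∧ L.On U b}
  have h1 : (J x x').ncard ≤ (J z w).ncard := by
    obtain ⟨g, g1, g2⟩ := S.tr2 x x' z w hx hzw
    refine Set.ncard_le_ncard_of_injOn (cj g) ?_ (fun _ _ _ _ h => cj_inj h) (Set.toFinite _)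
    rintro U ⟨a, b, c⟩
    exact ⟨K.ln g a, g1 ▸ K.on g b, g2 ▸ K.on g c⟩
  have h2 : J z w ⊆ J x x' := by
    rintro U ⟨a, b, c⟩
    exact ⟨a, hv U a b c, hv' U a b c⟩
  have h3 : J z w = J x x' := Set.eq_of_subset_of_ncard_le h2 h1 (Set.toFinite _)
  ext y
  constructor
  · intro h U a b c
    exact h U a (hv U a b c) (hv' U a b c)
  · intro h U a b c
    have : U ∈ J z w := h3 ▸ ⟨a, b, c⟩
    exact h U a this.2.1 this.2.2

end Cfsg.Agent.H96.OnLs
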