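import Cfsg.Agent.H35.RfQ
import Cfsg.Agent.H22.QtKit

/-! The action of the sextet group on the parity vectors of the even cocode. -/

set_option autoImplicit false
set_option maxRecDepth 1000000

namespace Cfsg.Agent.H96.RfTc

open Cfsg Subgroup Cfsg.Agent.H18.Rf Cfsg.Agent.H35.RF
open Cfsg.Agent.H42 hiding cj card_cj mem_cj gensL
open Cfsg.Agent.H83 Cfsg.Agent.H83.J4
open Cfsg.Agent.H49.JU (ca cm ca_eq ca_lt)
open Cfsg.Agent.H23.RfWcT
open Cfsg.Agent.H22.QtKit (FF LL gensL inF inF_iff GS_dec forall_LL card_FF)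
open scoped commutatorElement Pointwise

universe u

/-- the parity vectors fixed by a matrix -/
noncomputable def fx (c : ℕ) : List ℕ :=
  (List.range 16).filter fun a => Nat.blt (Nat.xor (mv c (Nat.mul 128 a)) (Nat.mul 128 a)) 128

/-- the commutator with the element of order three -/
noncomputable def cw3 (y : ℕ) : ℕ := pmul (pmul y rS) (pinv (pmul rS y))

/-- the test on the complement -/
noncomputable def tst (y : ℕ) : Bool := force (cm y) fun c => force (fx c).length fun n =>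
  Nat.blt n 8 || (inF y || inF (pmul y rS) || inF (pmul y (pmul rS rS))) ||
    (Nat.blt n 16 && !inF (cw3 y))

theorem tst_all : orbAll (actsOf pmul gensL) pid 2200 tst = true := by decide +kernel

/-- elements moving the parity vectors to the first one -/
def yL : List ℕ := [652325534931628596484059658113896777, 380663262565106164137111374653936106,
  191509181275559460686628536897028534, 134515846581101391678679004043429317,
  647112069791342573336204073937949001, 804339874846910366147693475571127526,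
  144948994781560398030605517993428421, 374516846924509641346335325405434346,
  973131294220904155714221496986863648, 424816777608638362749342198758658351,
  583657164150019198053265238317483171, 516028163256026209251968709638267467,
  624719215784674094483169672306479433, 310586310396617992760957549742052563,
  378085118001555127188590113484460522]

theorem yL_ok : ∀ a < 16, a ≠ 0 → ∃ y ∈ yL, inM y = true ∧ famAct 6 y sext0 = sext0 ∧
    inF (cw3 y) = true ∧ ca y (128 * a) / 128 = 1 := by decide +kernel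

theorem inM_rS : inM rS = true := by decide +kernel

theorem toM_cw3 {y : ℕ} (hy : inM y = true) : inM (cw3 y) = true ∧
    toM (cw3 y) = ⁅toM y, toM rS⁆ := by
  have a := inM_pmul hy inM_rS
  have b := inM_pmul inM_rS hy
  refine ⟨inM_pmul a (inM_pinv b), ?_⟩
  rw [cw3, toM_pmul a (inM_pinv b), toM_pinv b, toM_pmul hy inM_rS, toM_pmul inM_rS hy,
    commutatorElement_def]
  group

theorem gF_eq (h : Nat.card (gen gF) = 64) : gen gF = FF := by
  have : ∀ g ∈ gF, inM g = true ∧ inF g = true := by decide +kernel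
  exact eq_of_le_of_card_ge (gen_le _ fun g hg => (inF_iff (this g hg).1).1 (this g hg).2)
    (by rw [h, card_FF])

theorem par_chk : ∀ j < 2048, (∀ i < 6, ∀ k < 6, pc (Nat.land (rp j) (fld 24 sext0 i)) % 2 =
    pc (Nat.land (rp j) (fld 24 sext0 k)) % 2) ↔ j < 128 := by decide +kernel

theorem par_iff {j : ℕ} (hj : j < 2048) : (∀ t ∈ famDec 6 sext0, ∀ t' ∈ famDec 6 sext0,
    (toSet (rp j) ∩ t).card % 2 = (toSet (rp j) ∩ t').card % 2) ↔ j < 128 := by
  have hr : rp j < 2 ^ 24 := (lab_aux hj).2.2.1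
  rw [← par_chk j hj, forall_famDec]
  refine forall₂_congr fun i _ => ?_
  rw [forall_famDec]
  refine forall₂_congr fun k _ => ?_
  rw [card_toSet_inter _ hr, card_toSet_inter _ hr]

theorem xor_split {j : ℕ} (hj : j < 2048) : j ^^^ j % 128 = 128 * (j / 128) := by
  have := of_allB (p := fun j => Nat.beq (Nat.xor j (Nat.mod j 128)) (Nat.mul 128 (Nat.div j 128)))
    (n := 2048) (by decide +kernel) hj
  exact beq_iff.1 this

theorem tc (kit : KitTStmt.{u}) (va : VaTStmt.{u}) (ta : TaStmt.{u}) : TcStmt.{u} := by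
  intro G _ _ V ρ ψ ω Z
  classical
  have S := Z.st
  have T := Z.tod
  obtain ⟨hM, hW, -, -, h64, -⟩ := kit G V ρ ψ S T
  have A := va G V ρ ψ ω Z
  have B := ta G V ρ ψ ω Z
  obtain ⟨hω, eω⟩ := Z.om
  have mR : ∀ n : NN V, (n : G) ∈ RT V ρ ↔ ρ n ∈ FF := fun n => by
    rw [RT, coe_mem_pre, gF_eq h64]
  have mW : ∀ j < 2048, ψ (toSet (rp j)) ∈ WT ψ ↔ j < 128 := fun j hj =>
    (hW _ (ev_rp hj)).trans (par_iff hj)
  have mV : ∀ j < 2048, ψ (toSet (rp j)) ∈ V := fun j hj => T.mem _ (ev_rp hj)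
  have ex : ∀ v ∈ V, ∃ j < 2048, ψ (toSet (rp j)) = v := fun v hv => by
    obtain ⟨c, hc, rfl⟩ := T.sur v hv
    obtain ⟨n, hn, rfl⟩ := exists_toSet c
    exact ⟨cw n, cw_lt hn, (psi_cw S T hn hc).symm⟩
  have cR : ∀ (n : NN V) y, inM y = true → ρ n = toM y →
      (⁅(n : G), ω⁆ ∈ RT V ρ ↔ inF (cw3 y) = true) := fun n y hy e => by
    rw [inF_iff (toM_cw3 hy).1, (toM_cw3 hy).2, ← e, ← eω, ← map_commutatorElement, ← mR]
    rfl
  have red : ∀ U : Subgroup G, WT ψ ≤ U → ∀ j < 2048,
      (ψ (toSet (rp j)) ∈ U ↔ ψ (toSet (rp (128 * (j / 128)))) ∈ U) := fun U hU j hj => by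
    have h1 : j % 128 < 128 := Nat.mod_lt _ (by norm_num)
    rw [← xor_split hj, chi_mul S T hj (by omega)]
    exact (U.mul_mem_cancel_right (hU ((mW _ (by omega)).2 h1))).symm
  -- the kernel
  have key : ∀ m ∈ MM V (ψ t0), ∀ U : Subgroup G, WT ψ ≤ U → U ≤ V → (∀ u ∈ U, ⁅m, u⁆ ∈ WT ψ) →
      8 * 128 ≤ Nat.card U → (⁅m, ω⁆ ∈ RT V ρ ∨ 16 * 128 ≤ Nat.card U) →
      m ∈ RT V ρ ⊔ zpowers ω := by
    intro m hm U hWU hUV hc h8 h16
    obtain ⟨hN, hg⟩ := mem_pre.1 (hM ▸ hm)
    obtain ⟨f, hf, l, hl, e⟩ := GS_dec hg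
    obtain ⟨y, hy, rfl, ht⟩ := forall_LL tst_all hl
    obtain ⟨n, hn⟩ := S.sur (toM y)
    have hr0 : m * (n : G)⁻¹ ∈ RT V ρ := (mR (⟨m, hN⟩ * n⁻¹)).2 (by
      rw [map_mul, map_inv, e, hn, mul_inv_cancel_right]; exact hf)
    obtain ⟨r, hr, rfl⟩ : ∃ r ∈ RT V ρ, m = r * n := ⟨_, hr0, by group⟩
    have c1 : ∀ u ∈ U, ⁅(n : G), u⁆ ∈ WT ψ := fun u hu => by
      have h1 := mul_mem (inv_mem (A.RV r hr _ ((mem_normalizer_iff.1 n.2 u).1 (hUV hu)))) (hc u hu)
      rwa [show ⁅r, n * u * (n : G)⁻¹⁆⁻¹ * ⁅r * n, u⁆ = ⁅(n : G), u⁆ by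
        simp only [commutatorElement_def]; group] at h1
    have cnt : Nat.card U ≤ (fx (cm y)).length * 128 := by
      have sub : (U : Set G) ⊆ ((fx (cm y)).toFinset ×ˢ Finset.range 128).image
          (fun p : ℕ × ℕ => ψ (toSet (rp (128 * p.1 + p.2)))) := by
        intro u hu
        obtain ⟨j, hj, rfl⟩ := ex u (hUV hu)
        rw [Finset.mem_coe, Finset.mem_image]
        refine ⟨(j / 128, j % 128), Finset.mem_product.2 ⟨?_, Finset.mem_range.2
          (Nat.mod_lt _ (by norm_num))⟩, by rw [Nat.div_add_mod]⟩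
        have h1 := c1 _ ((red U hWU j hj).1 hu)
        have h2 : 128 * (j / 128) < 2048 := by omega
        rw [commutatorElement_def, conj_ca S T hy hn h2,
          inv_eq_of_mul_eq_one_right (S.el _ (mV _ h2)), ← chi_mul S T (ca_lt _ h2) h2,
          mW _ (Nat.xor_lt_two_pow (n := 11) (ca_lt _ h2) h2), ca_eq] at h1
        rw [List.mem_toFinset, fx, List.mem_filter, List.mem_range]
        exact ⟨by omega, by rw [Nat.blt_eq]; exact h1⟩
      have h1 := Set.ncard_le_ncard sub (Finset.finite_toSet _)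
      rw [Set.ncard_coe_finset] at h1
      refine (le_of_eq (Nat.card_coe_set_eq (U : Set G))).trans (h1.trans
        (Finset.card_image_le.trans ?_))
      rw [Finset.card_product, Finset.card_range]
      exact Nat.mul_le_mul_right _ (List.toFinset_card_le _)
    refine mul_mem (mem_sup_left hr) ?_
    have ωm : ω ∈ RT V ρ ⊔ zpowers ω := mem_sup_right (mem_zpowers ω)
    simp only [tst, force_eq, Bool.or_eq_true, Bool.and_eq_true, Nat.blt_eq,
      Bool.not_eq_true'] at ht
    rcases ht with (ht | (ht | ht) | ht) | ht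
    · omega
    · exact mem_sup_left ((mR n).2 (hn ▸ (inF_iff hy).1 ht))
    · rw [inF_iff (inM_pmul hy inM_rS), toM_pmul hy inM_rS, ← hn, ← eω, ← map_mul, ← mR] at ht
      exact (mul_mem_cancel_right ωm).1 (mem_sup_left ht)
    · rw [inF_iff (inM_pmul hy (inM_pmul inM_rS inM_rS)), toM_pmul hy (inM_pmul inM_rS inM_rS),
        toM_pmul inM_rS inM_rS, ← hn, ← eω, ← map_mul, ← map_mul, ← mR] at ht
      exact (mul_mem_cancel_right (mul_mem ωm ωm)).1 (mem_sup_left ht)
    · exfalso
      rcases h16 with h16 | h16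
      · have h1 := mul_mem (mul_mem (inv_mem hr) h16)
          ((mem_normalizer_iff.1 (A.nR B.om) r).1 hr)
        rw [show r⁻¹ * ⁅r * n, ω⁆ * (ω * r * ω⁻¹) = ⁅(n : G), ω⁆ by
          simp only [commutatorElement_def]; group, cR n y hy hn, ht.2] at h1
        exact Bool.false_ne_true h1
      · omega
  refine ⟨fun m hm h1 U hWU hUV h8 hc => key m hm U hWU hUV hc (by rw [B.cW] at h8; omega) (.inl h1),
    fun m hm hc => key m hm V A.WV le_rfl hc (by rw [A.cV]; norm_num) (.inr (by rw [A.cV]; norm_num)),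
    fun U hWU hUV hn => ?_⟩
  have one : ∀ a < 16, a ≠ 0 → (ψ (toSet (rp (128 * a))) ∈ U ↔ ψ (toSet (rp (128 * 1))) ∈ U) := by
    intro a ha a0
    obtain ⟨y, -, hy, h1, h2, h3⟩ := yL_ok a ha a0
    obtain ⟨n, e⟩ := S.sur (toM y)
    have h4 : 128 * a < 2048 := by omega
    have h5 := hn n (hM ▸ coe_mem_pre.2 (e ▸ (toM_mem_stabilizer_famDec hy famOk_sext0).2 h1))
      ((cR n y hy e).2 h2)
    rw [mem_normalizer_iff.1 h5, conj_ca S T hy e h4, red U hWU _ (ca_lt _ h4), h3]
  by_cases h : ψ (toSet (rp (128 * 1))) ∈ U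
  · refine .inr (le_antisymm hUV fun v hv => ?_)
    obtain ⟨j, hj, rfl⟩ := ex v hv
    by_cases h0 : j / 128 = 0
    · exact hWU ((mW j hj).2 (by omega))
    · exact (red U hWU j hj).2 ((one _ (by omega) h0).2 h)
  · refine .inl (le_antisymm (fun v hv => ?_) hWU)
    obtain ⟨j, hj, rfl⟩ := ex v (hUV hv)
    by_cases h0 : j / 128 = 0
    · exact (mW j hj).2 (by omega)
    · exact absurd ((one _ (by omega) h0).1 ((red U hWU j hj).1 hv)) h

end Cfsg.Agent.H96.RfTc
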